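import Cfsg.Agent.Lib.ModTI.Cyclic

/-!
# Faithful modular representations of groups with a cyclic T.I. Sylow subgroup: the main bound
-/

set_option autoImplicit false

namespace Cfsg.Agent.Lib.ModTI.CyclicMain

open scoped BigOperators Polynomial Pointwise
open Finset Cfsg.Agent.Lib.ModTI.Trace Cfsg.Agent.Lib.ModTI.Cyclic

variable {G : Type*} [Group G] [Finite G] {p : ℕ} [Fact p.Prime]
  {F V : Type*} [Field F] [CharP F p] [AddCommGroup V] [Module F V] [FiniteDimensional F V]

/-- The main bound. -/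
theorem finrank_ge (P : Sylow p G) (hcyc : IsCyclic P) (n : ℕ) (hn : 2 ≤ n)
    (hPn : Nat.card P = p ^ n)
    (hTI : ∀ g : G, g ∉ Subgroup.normalizer ((P : Subgroup G) : Set G) →
      (P : Subgroup G) ⊓ (MulAut.conj g • (P : Subgroup G)) = ⊥)
    (ρ : Representation F G V) (hfaith : Function.Injective ρ) (hirr : ρ.IsIrreducible) :
    p ^ n - (p - 1) ≤ Module.finrank F V := by
  classical
  by_contra hcontra
  have hcontra' : Module.finrank F V + (p - 1) < p ^ n := by omega
  have hp : p.Prime := Fact.out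
  haveI : Fintype (P : Subgroup G) := Fintype.ofFinite _
  haveI : Nontrivial V := by
    by_contra h
    rw [not_nontrivial_iff_subsingleton] at h
    have h1 : (⊥ : Subrepresentation ρ) = ⊤ := by
      apply Subrepresentation.toSubmodule_injective
      exact Subsingleton.elim _ _
    exact bot_ne_top h1
  -- generator
  obtain ⟨g₀, hg₀⟩ := IsCyclic.exists_generator (α := (P : Subgroup G))
  have hord : orderOf g₀ = p ^ n := by
    rw [orderOf_eq_card_of_forall_mem_zpowers hg₀]
    exact hPn
  set x : G := (g₀ : G) with hx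
  have hordx : orderOf x = p ^ n := by
    rw [hx, Subgroup.orderOf_coe, hord]
  set X : Module.End F V := ρ x with hX
  set Xi : Module.End F V := ρ x⁻¹ with hXi
  have hXXi : X * Xi = 1 := by rw [hX, hXi, ← map_mul, mul_inv_cancel, map_one]
  have hXiX : Xi * X = 1 := by rw [hX, hXi, ← map_mul, inv_mul_cancel, map_one]
  have hXpow : ∀ k : ℕ, X ^ k = ρ (x ^ k) := fun k => (map_pow ρ x k).symm
  have hXipow : ∀ k : ℕ, Xi ^ k = ρ ((x ^ k)⁻¹) := by
    intro k
    rw [hXi, ← map_pow, inv_pow]
  haveI : Nontrivial (Module.End F V) := inferInstance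
  haveI : CharP (Module.End F V) p := charP_of_injective_algebraMap
    (FaithfulSMul.algebraMap_injective F (Module.End F V)) p
  set u : Module.End F V := X - 1 with hu
  have hupow : ∀ k : ℕ, u ^ p ^ k = ρ (x ^ p ^ k) - 1 := by
    intro k
    rw [hu, sub_pow_char_pow_of_commute (p := p) (n := k) (Commute.one_right X), one_pow, hXpow]
  have huq : u ^ p ^ n = 0 := by
    rw [hupow, ← hordx, pow_orderOf_eq_one, map_one, sub_self]
  -- the index of nilpotency
  have hex : ∃ k : ℕ, u ^ k = 0 := ⟨_, huq⟩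
  set ℓ : ℕ := Nat.find hex with hℓ
  have hℓ0 : u ^ ℓ = 0 := Nat.find_spec hex
  have hℓ1 : 1 ≤ ℓ := by
    by_contra h
    have h0 : ℓ = 0 := by omega
    rw [h0, pow_zero] at hℓ0
    exact one_ne_zero hℓ0
  have hℓmin : u ^ (ℓ - 1) ≠ 0 := Nat.find_min hex (by omega)
  have hℓd : ℓ ≤ Module.finrank F V :=
    Nat.find_min' hex (pow_finrank_eq_zero u ⟨_, huq⟩)
  have hpn1 : p ≤ p ^ (n - 1) := by
    calc p = p ^ 1 := (pow_one p).symm
      _ ≤ p ^ (n - 1) := Nat.pow_le_pow_right hp.pos (by omega)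
  have hℓp : p ^ (n - 1) < ℓ := by
    by_contra h
    have h1 : u ^ p ^ (n - 1) = 0 := pow_eq_zero_of_le (by omega) hℓ0
    rw [hupow, sub_eq_zero] at h1
    have h2 : x ^ p ^ (n - 1) = 1 := by
      apply hfaith
      rw [h1, map_one]
    have h3 := orderOf_dvd_of_pow_eq_one h2
    rw [hordx] at h3
    have h4 := (Nat.pow_dvd_pow_iff_le_right hp.one_lt).mp h3
    omega
  -- the automizer
  let Θ := (P : Subgroup G).normalizerMonoidHom
  let E := Θ.range
  haveI : Fintype E := Fintype.ofFinite _
  have hEdvd : Nat.card E ∣ p - 1 := card_range_dvd P hcyc n (by omega) hPn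
  have hEpos : 1 ≤ Fintype.card E := Fintype.card_pos
  have hEle : Fintype.card E ≤ p - 1 := by
    rw [← Nat.card_eq_fintype_card]
    exact Nat.le_of_dvd (by have := hp.two_le; omega) hEdvd
  -- exponents
  have hr : ∀ σ : E, ∃ r : ℕ, ((σ : MulAut (P : Subgroup G)) g₀) = g₀ ^ r := by
    intro σ
    have h1 := hg₀ ((σ : MulAut (P : Subgroup G)) g₀)
    rw [← mem_powers_iff_mem_zpowers] at h1
    obtain ⟨r, hr⟩ := h1
    exact ⟨r, hr.symm⟩
  choose r hrσ using hr
  have hrx : ∀ σ : E, (((σ : MulAut (P : Subgroup G)) g₀ : (P : Subgroup G)) : G) = x ^ r σ := by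
    intro σ
    rw [hrσ, Subgroup.coe_pow]
  have hrp : ∀ σ : E, ¬ p ∣ r σ := by
    rintro σ ⟨m, hm⟩
    have h1 : (σ : MulAut (P : Subgroup G)) (g₀ ^ p ^ (n - 1)) = 1 := by
      rw [map_pow, hrσ, hm, ← pow_mul, mul_comm (p * m), ← mul_assoc, ← pow_succ,
        Nat.sub_add_cancel (by omega : 1 ≤ n), pow_mul, ← hord, pow_orderOf_eq_one, one_pow]
    have h2 : g₀ ^ p ^ (n - 1) = 1 := by
      have := (MulEquiv.map_eq_one_iff (σ : MulAut (P : Subgroup G))).mp h1
      exact this
    have h3 := orderOf_dvd_of_pow_eq_one h2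
    rw [hord] at h3
    have h4 := (Nat.pow_dvd_pow_iff_le_right hp.one_lt).mp h3
    omega
  -- the invariant polynomial
  let φ : F[X] →ₐ[F] Module.End F V := Polynomial.aeval X
  let g : E → F[X] := fun σ => (Polynomial.X : F[X]) ^ r σ - 1
  let w : F[X] := ∏ σ : E, g σ
  let W : F[X] := ∏ σ : E, ∑ i ∈ range (r σ), (Polynomial.X : F[X]) ^ i
  have hwW : w = ((Polynomial.X : F[X]) - 1) ^ Fintype.card E * W := by
    have h1 : ∀ σ : E, g σ = ((Polynomial.X : F[X]) - 1) *
        ∑ i ∈ range (r σ), (Polynomial.X : F[X]) ^ i := by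
      intro σ
      rw [mul_comm, geom_sum_mul]
    simp only [w, W, h1]
    rw [Finset.prod_mul_distrib, Finset.prod_const, Finset.card_univ]
  have hφX : ∀ k : ℕ, φ ((Polynomial.X : F[X]) ^ k) = X ^ k := by
    intro k
    simp [φ]
  have hφu : φ ((Polynomial.X : F[X]) - 1) = u := by
    simp [φ, hu]
  set y : Module.End F V := φ w with hy
  set Wv : Module.End F V := φ W with hWv
  have hyeq : y = u ^ Fintype.card E * Wv := by
    rw [hy, hwW, map_mul, map_pow, hφu]
  have hWu : Commute Wv u := by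
    have h1 : Commute W ((Polynomial.X : F[X]) - 1) := Commute.all _ _
    have h2 := h1.map φ
    rwa [hφu] at h2
  -- the invariance of `y`
  have hyinv : ∀ z ∈ Subgroup.normalizer ((P : Subgroup G) : Set G), ρ z * y = y * ρ z := by
    intro z hz
    let z' : Subgroup.normalizer ((P : Subgroup G) : Set G) := ⟨z, hz⟩
    let θ : E := ⟨Θ z', ⟨z', rfl⟩⟩
    have hΘ : ∀ a : (P : Subgroup G), (((θ : MulAut (P : Subgroup G)) a : (P : Subgroup G)) : G) =
        z * a * z⁻¹ := fun a => rfl
    have hzx : z * x * z⁻¹ = x ^ r θ := by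
      have := hrx θ
      rwa [hΘ] at this
    have hsemi : SemiconjBy (ρ z) X (X ^ r θ) := by
      change ρ z * ρ x = X ^ r θ * ρ z
      rw [hXpow, ← hzx, ← map_mul, ← map_mul]
      congr 1
      group
    have hall : ∀ f : F[X], ρ z * φ f = Polynomial.aeval (X ^ r θ) f * ρ z := by
      intro f
      induction f using Polynomial.induction_on' with
      | add a b ha hb => rw [map_add, map_add, mul_add, add_mul, ha, hb]
      | monomial k c =>
        rw [← Polynomial.C_mul_X_pow_eq_monomial, map_mul, map_mul, Polynomial.aeval_C,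
          Polynomial.aeval_C, map_pow, map_pow, Polynomial.aeval_X, Polynomial.aeval_X]
        have h1 := (hsemi.pow_right k).eq
        rw [← mul_assoc, ← Algebra.commutes, mul_assoc, h1, mul_assoc]
    have hcomp : Polynomial.aeval (X ^ r θ) w = φ w := by
      have h1 : X ^ r θ = Polynomial.aeval X ((Polynomial.X : F[X]) ^ r θ) := by simp
      rw [h1, ← Polynomial.aeval_comp]
      have h2 : w.comp ((Polynomial.X : F[X]) ^ r θ) =
          ∏ σ : E, (((Polynomial.X : F[X]) ^ r θ) ^ r σ - 1) := by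
        simp only [w, g]
        rw [Polynomial.prod_comp]
        refine Finset.prod_congr rfl fun σ _ => ?_
        simp
      rw [h2]
      have h3 : Polynomial.aeval X (∏ σ : E, (((Polynomial.X : F[X]) ^ r θ) ^ r σ - 1)) =
          Polynomial.aeval X (∏ σ : E, g (θ * σ)) := by
        apply aeval_prod_congr
        intro σ _
        simp only [g, map_sub, map_pow, Polynomial.aeval_X, map_one]
        congr 1
        rw [← pow_mul, hXpow, hXpow]
        congr 1
        rw [← hrx (θ * σ)]
        have h4 : (((θ * σ : E) : MulAut (P : Subgroup G)) g₀) =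
            (θ : MulAut (P : Subgroup G)) ((σ : MulAut (P : Subgroup G)) g₀) := rfl
        rw [h4, hΘ, hrx σ, pow_mul, ← hzx]
        rw [conj_pow]
      rw [h3]
      have h5 : ∏ σ : E, g (θ * σ) = w := Equiv.prod_comp (Equiv.mulLeft θ) g
      rw [h5]
    rw [hy, hall, hcomp]
  -- the trace decomposition
  obtain ⟨T, f, hTcomm, hT⟩ := exists_trace_decomp ρ (P : Subgroup G)
    (Subgroup.normalizer ((P : Subgroup G) : Set G)) (P : Subgroup G).le_normalizer
    (fun g hg h hh hn => free_of_TI P hTI g hg h hh hn) y hyinv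
  set S : Module.End F V := ∑ h : (P : Subgroup G), ρ (h : G) * f * ρ ((h : G)⁻¹) with hS
  have hSrange : S = ∑ i ∈ range (p ^ n), X ^ i * f * Xi ^ i := by
    have h1 := IsCyclic.image_range_orderOf hg₀
    rw [hS, ← h1, Finset.sum_image, hord]
    · refine Finset.sum_congr rfl fun i _ => ?_
      rw [hXpow, hXipow]
      simp [hx]
    · intro a ha b hb hab
      have ha' : a < orderOf g₀ := by simpa using ha
      have hb' : b < orderOf g₀ := by simpa using hb
      exact pow_injOn_Iio_orderOf (Set.mem_Iio.mpr ha') (Set.mem_Iio.mpr hb') hab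
  have hSm : ∀ m : ℕ, 2 * ℓ ≤ m + p ^ n → u ^ m * S = 0 := by
    intro m hm
    rw [hSrange]
    exact pow_mul_trace_eq_zero p n X Xi hXXi hXiX ℓ m hℓ0 hm f
  -- `S` commutes with `X`
  have hSX : Commute S X := by
    have h1 : X * S * Xi = S := by
      rw [hS, Finset.mul_sum, Finset.sum_mul]
      have h2 : ∀ h : (P : Subgroup G), X * (ρ (h : G) * f * ρ ((h : G)⁻¹)) * Xi =
          ρ ((g₀ * h : (P : Subgroup G)) : G) * f * ρ (((g₀ * h : (P : Subgroup G)) : G)⁻¹) := by
        intro h
        rw [Subgroup.coe_mul, mul_inv_rev, map_mul, map_mul, hX, hXi]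
        simp only [mul_assoc]
        rfl
      simp only [h2]
      exact Equiv.sum_comp (Equiv.mulLeft g₀)
        (fun h : (P : Subgroup G) => ρ (h : G) * f * ρ ((h : G)⁻¹))
    change S * X = X * S
    calc S * X = X * S * Xi * X := by rw [h1]
      _ = X * S * (Xi * X) := by simp only [mul_assoc]
      _ = X * S := by rw [hXiX, mul_one]
  have hSu : Commute S u := hSX.sub_right (Commute.one_right S)
  -- Step 1
  have hstep0 : u ^ (ℓ - 1) * S = 0 := by
    apply hSm
    have := hp.two_le
    omega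
  have hEℓ : Fintype.card E ≤ ℓ - 1 := by omega
  obtain ⟨v, hv⟩ : ∃ v : V, (u ^ (ℓ - 1)) v ≠ 0 := by
    by_contra h
    push Not at h
    exact hℓmin (LinearMap.ext h)
  have hTs : T ((u ^ (ℓ - 1)) v) = 0 := by
    have h1 : T * u ^ (ℓ - 1) = 0 := by
      rw [hT, add_mul, (hSu.pow_right (ℓ - 1)).eq, hstep0, add_zero, hyeq, mul_assoc,
        (hWu.pow_right (ℓ - 1)).eq, ← mul_assoc, ← pow_add]
      rw [pow_eq_zero_of_le (by omega) hℓ0, zero_mul]
    exact congrArg (fun Z : Module.End F V => Z v) h1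
  have hT0 : T = 0 := by
    let R : Subrepresentation ρ := ⟨LinearMap.ker T, fun g₁ v₁ hv₁ => by
      rw [LinearMap.mem_ker] at hv₁ ⊢
      have := congrArg (fun Z : Module.End F V => Z v₁) (hTcomm g₁)
      simp only [Module.End.mul_apply, hv₁, map_zero] at this
      exact this.symm⟩
    rcases eq_bot_or_eq_top R with h | h
    · exfalso
      have h1 : LinearMap.ker T = ⊥ := congrArg Subrepresentation.toSubmodule h
      have h2 : (u ^ (ℓ - 1)) v ∈ LinearMap.ker T := hTs
      rw [h1] at h2
      exact hv h2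
    · have h1 : LinearMap.ker T = ⊤ := congrArg Subrepresentation.toSubmodule h
      exact LinearMap.ker_eq_top.mp h1
  have hyS : y = -S := by
    have h1 : y + S = 0 := by rw [← hT, hT0]
    exact eq_neg_of_add_eq_zero_left h1
  -- Step 2
  have hstep1 : u ^ (ℓ - 1 - Fintype.card E) * S = 0 := by
    apply hSm
    have := hp.two_le
    omega
  have hstep2 : u ^ (ℓ - 1) * Wv = 0 := by
    have h1 : u ^ (ℓ - 1 - Fintype.card E) * y = 0 := by
      rw [hyS, mul_neg, hstep1, neg_zero]
    rw [hyeq, ← mul_assoc, ← pow_add, Nat.sub_add_cancel hEℓ] at h1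
    exact h1
  -- coprimality
  have hcop : IsCoprime W (((Polynomial.X : F[X]) - 1) ^ ℓ) := by
    apply IsCoprime.pow_right
    have h1 : (Polynomial.X : F[X]) - 1 = Polynomial.X - Polynomial.C 1 := by simp
    rw [h1]
    apply IsCoprime.symm
    rw [(Polynomial.irreducible_X_sub_C (1 : F)).coprime_iff_not_dvd]
    rw [Polynomial.dvd_iff_isRoot, Polynomial.IsRoot.def]
    simp only [W]
    rw [Polynomial.eval_prod]
    refine Finset.prod_ne_zero_iff.mpr ?_
    intro σ _
    rw [Polynomial.eval_finsetSum]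
    simp only [Polynomial.eval_pow, Polynomial.eval_X, one_pow, Finset.sum_const, Finset.card_range,
      nsmul_eq_mul, mul_one]
    rw [Ne, CharP.cast_eq_zero_iff F p]
    exact hrp σ
  obtain ⟨A, B, hAB⟩ := hcop
  have hfin : φ A * Wv + φ B * u ^ ℓ = 1 := by
    have := congrArg φ hAB
    rwa [map_add, map_mul, map_mul, map_pow, hφu, map_one] at this
  apply hℓmin
  have h1 : u ^ (ℓ - 1) * (Wv * φ A + u ^ ℓ * φ B) = u ^ (ℓ - 1) := by
    have h2 : Wv * φ A + u ^ ℓ * φ B = 1 := by
      rw [← hfin]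
      congr 1
      · exact (Commute.all W A).map φ
      · have : Commute (((Polynomial.X : F[X]) - 1) ^ ℓ) B := Commute.all _ _
        have h3 := this.map φ
        rw [map_pow, hφu] at h3
        exact h3
    rw [h2, mul_one]
  rw [← h1, mul_add, ← mul_assoc, hstep2, zero_mul, zero_add, ← mul_assoc, hℓ0, mul_zero, zero_mul]

end Cfsg.Agent.Lib.ModTI.CyclicMain
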